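import Mathlib
import Cfsg.Agent.Lib.Helper60.U64.Defs

/-!
# U64 (S6001): small general facts (characteristic of a field of order `p ^ 2`, rank)
-/

set_option autoImplicit false

namespace Cfsg.Agent.Lib.Helper52.U64

open Matrix Cfsg.Agent.Lib.Helper60.U64

universe u

variable {F : Type u} [Field F]

theorem natCast_eq_zero_of_card [Fintype F] {p : ℕ} (hK : Fintype.card F = p ^ 2) :
    (p : F) = 0 := by
  have h := FiniteField.cast_card_eq_zero F
  rw [hK, Nat.cast_pow] at h
  exact pow_eq_zero_iff (two_ne_zero) |>.mp h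

theorem charP_of_card [Fintype F] {p : ℕ} (hK : Fintype.card F = p ^ 2) (hp : p.Prime) :
    CharP F p :=
  (CharP.charP_iff_prime_eq_zero hp).mpr (natCast_eq_zero_of_card hK)

theorem two_ne_zero_of_card [Fintype F] {p : ℕ} (hK : Fintype.card F = p ^ 2) (hp : p.Prime)
    (hp2 : p ≠ 2) : (2 : F) ≠ 0 := by
  haveI := charP_of_card hK hp
  intro h
  have h' : ((2 : ℕ) : F) = 0 := by exact_mod_cast h
  rw [CharP.cast_eq_zero_iff F p 2] at h'
  rcases (Nat.dvd_prime Nat.prime_two).mp h' with h1 | h1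
  · exact hp.one_lt.ne' h1
  · exact hp2 h1

theorem rank_pos_of_ne_zero (A : M4 F) (h : A ≠ 0) : 0 < A.rank := by
  by_contra h0
  have h0' : A.rank = 0 := by omega
  rw [Matrix.rank, Submodule.finrank_eq_zero, LinearMap.range_eq_bot] at h0'
  apply h
  ext a b
  have := congrFun (congrArg (fun f : (Fin 4 → F) →ₗ[F] (Fin 4 → F) => f (Pi.single b 1)) h0') a
  simpa using this

end Cfsg.Agent.Lib.Helper52.U64
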