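import Mathlib
import Cfsg.Agent.Lib.Helper60.U64.Defs

/-!
# U64 (S6001), package [EXPL]: powers and determinants of the explicit matrices
-/

set_option autoImplicit false

namespace Cfsg.Agent.Lib.Helper52.U64

open Matrix Cfsg.Agent.Lib.Helper60.U64

universe u

variable {F : Type u} [Field F]

/-- `2 • mU0 i`. -/
def nU0 (i : F) : M4 F :=
  !![-1 - i, -1 - i, 0, 0; 1 - i, -1 + i, 0, 0; 0, 0, -1 - i, -1 - i; 0, 0, 1 - i, -1 + i]
/-- `2 • mU2 i`. -/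
def nU2 (i : F) : M4 F :=
  !![i, i, i, i; -1, 1, -1, 1; -1, -1, 1, 1; -i, i, i, -i]
/-- `2 • mY5 i`. -/
def nY5 (i : F) : M4 F :=
  !![-1 + i, 0, -1 + i, 0; 0, -1 - i, 0, -1 - i; 0, 1 - i, 0, -1 + i; -1 - i, 0, 1 + i, 0]

theorem mU0_eq (i : F) : mU0 i = (2 : F)⁻¹ • nU0 i := rfl
theorem mU2_eq (i : F) : mU2 i = (2 : F)⁻¹ • nU2 i := rfl
theorem mY5_eq (i : F) : mY5 i = (2 : F)⁻¹ • nY5 i := rfl

/-- `(nU0 i)²`. -/
def sU0 (i : F) : M4 F :=
  !![-2 + 2 * i, 2 + 2 * i, 0, 0; -2 + 2 * i, -2 - 2 * i, 0, 0; 0, 0, -2 + 2 * i, 2 + 2 * i;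
    0, 0, -2 + 2 * i, -2 - 2 * i]
/-- `(nU2 i)²`. -/
def sU2 (i : F) : M4 F :=
  !![-(2 * i), -2, -2, 2 * i; -(2 * i), 2, -2, -(2 * i); -(2 * i), -2, 2, -(2 * i);
    -(2 * i), 2, 2, 2 * i]
/-- `(nY5 i)²`. -/
def sY5 (i : F) : M4 F :=
  !![-(2 * i), 2 * i, -(2 * i), -(2 * i); 2 * i, 2 * i, -(2 * i), 2 * i; 2, -2, -2, -2; 2, 2, 2, -2]
/-- `(nY5 i)⁴`. -/
def qY5 (i : F) : M4 F :=
  !![-8 - 8 * i, 0, 0, -8 + 8 * i; 0, -8 + 8 * i, 8 + 8 * i, 0; -8 - 8 * i, 0, 0, 8 - 8 * i;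
    0, -8 + 8 * i, -8 - 8 * i, 0]

theorem nU0_mul (i : F) (hi : i * i = -1) : nU0 i * nU0 i = sU0 i := by
  ext a b
  fin_cases a <;> fin_cases b <;>
    simp [nU0, sU0, Matrix.mul_apply, Fin.sum_univ_four] <;> grind

theorem sU0_mul (i : F) (hi : i * i = -1) : sU0 i * nU0 i = (8 : F) • (1 : M4 F) := by
  ext a b
  fin_cases a <;> fin_cases b <;>
    simp [nU0, sU0, Matrix.mul_apply, Fin.sum_univ_four] <;> grind

theorem nU2_mul (i : F) (hi : i * i = -1) : nU2 i * nU2 i = sU2 i := by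
  ext a b
  fin_cases a <;> fin_cases b <;>
    simp [nU2, sU2, Matrix.mul_apply, Fin.sum_univ_four] <;> grind

theorem sU2_mul (i : F) (hi : i * i = -1) : sU2 i * nU2 i = (8 : F) • (1 : M4 F) := by
  ext a b
  fin_cases a <;> fin_cases b <;>
    simp [nU2, sU2, Matrix.mul_apply, Fin.sum_univ_four] <;> grind

theorem nY5_mul (i : F) (hi : i * i = -1) : nY5 i * nY5 i = sY5 i := by
  ext a b
  fin_cases a <;> fin_cases b <;>
    simp [nY5, sY5, Matrix.mul_apply, Fin.sum_univ_four] <;> grind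

theorem sY5_mul (i : F) (hi : i * i = -1) : sY5 i * sY5 i = qY5 i := by
  ext a b
  fin_cases a <;> fin_cases b <;>
    simp [qY5, sY5, Matrix.mul_apply, Fin.sum_univ_four] <;> grind

theorem qY5_mul (i : F) (hi : i * i = -1) : qY5 i * nY5 i = (32 : F) • (1 : M4 F) := by
  ext a b
  fin_cases a <;> fin_cases b <;>
    simp [nY5, qY5, Matrix.mul_apply, Fin.sum_univ_four] <;> grind

theorem mU0_pow (i : F) (hi : i * i = -1) (h2 : (2 : F) ≠ 0) : mU0 i ^ 3 = 1 := by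
  have h : nU0 i ^ 3 = nU0 i * nU0 i * nU0 i := by
    simp only [pow_succ, pow_zero, one_mul]
  rw [mU0_eq, smul_pow, h, nU0_mul i hi, sU0_mul i hi, smul_smul]
  have : ((2 : F)⁻¹) ^ 3 * 8 = 1 := by field_simp; norm_num
  rw [this, one_smul]

theorem mU2_pow (i : F) (hi : i * i = -1) (h2 : (2 : F) ≠ 0) : mU2 i ^ 3 = 1 := by
  have h : nU2 i ^ 3 = nU2 i * nU2 i * nU2 i := by
    simp only [pow_succ, pow_zero, one_mul]
  rw [mU2_eq, smul_pow, h, nU2_mul i hi, sU2_mul i hi, smul_smul]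
  have : ((2 : F)⁻¹) ^ 3 * 8 = 1 := by field_simp; norm_num
  rw [this, one_smul]

theorem nY5_pow (i : F) (hi : i * i = -1) : nY5 i ^ 5 = (32 : F) • (1 : M4 F) := by
  have h : nY5 i ^ 5 = (nY5 i * nY5 i) * (nY5 i * nY5 i) * nY5 i := by
    simp only [pow_succ, pow_zero, one_mul, mul_assoc]
  rw [h, nY5_mul i hi, sY5_mul i hi, qY5_mul i hi]

theorem mY5_pow (i : F) (hi : i * i = -1) (h2 : (2 : F) ≠ 0) : mY5 i ^ 5 = 1 := by
  rw [mY5_eq, smul_pow, nY5_pow i hi, smul_smul]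
  have : ((2 : F)⁻¹) ^ 5 * 32 = 1 := by field_simp; norm_num
  rw [this, one_smul]

theorem nY5_det (i : F) (hi : i * i = -1) : (nY5 i).det = 16 := by
  rw [Matrix.det_succ_row_zero]
  simp [nY5, Fin.sum_univ_four, Matrix.det_fin_three, Fin.succAbove, Matrix.submatrix]
  grind

theorem mY5_det (i : F) (hi : i * i = -1) (h2 : (2 : F) ≠ 0) : (mY5 i).det = 1 := by
  rw [mY5_eq, Matrix.det_smul, nY5_det i hi]
  simp only [Fintype.card_fin]
  field_simp; norm_num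

theorem mY5_ne_one (i : F) (hi : i * i = -1) (h2 : (2 : F) ≠ 0) : mY5 i ≠ 1 := by
  intro h
  have h02 := congrFun (congrFun h 0) 2
  simp [mY5] at h02
  have hi1 : i = 1 := by grind
  rw [hi1] at hi
  apply h2
  linear_combination hi

theorem mU0_ne_one (i : F) (hi : i * i = -1) (h2 : (2 : F) ≠ 0) : mU0 i ≠ 1 := by
  intro h
  have h01 := congrFun (congrFun h 0) 1
  simp [mU0] at h01
  have hi1 : i = -1 := by grind
  rw [hi1] at hi
  apply h2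
  linear_combination hi

theorem mU2_ne_one (i : F) (hi : i * i = -1) (h2 : (2 : F) ≠ 0) : mU2 i ≠ 1 := by
  intro h
  have h01 := congrFun (congrFun h 0) 1
  simp [mU2] at h01
  rcases h01 with h01 | h01
  · exact h2 h01
  · rw [h01] at hi
    simp at hi

/-- Package [EXPL]. -/
theorem pkgExpl : Cfsg.Agent.Lib.Helper60.U64.PkgExpl.{u} := by
  intro F _ i hi h2
  exact ⟨mU0_pow i hi h2, mU2_pow i hi h2, mY5_pow i hi h2, mY5_det i hi h2, mY5_ne_one i hi h2,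
    mU0_ne_one i hi h2, mU2_ne_one i hi h2⟩

end Cfsg.Agent.Lib.Helper52.U64
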