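import Mathlib
import Cfsg.Agent.Lib.Helper60.U64.Defs
import Cfsg.Agent.Lib.Helper40.UnitaryWall
import Cfsg.Agent.Lib.Helper52.U64.Expl
import Cfsg.Agent.Lib.Helper52.U64.Basic

/-!
# U64 (S6001), package [GUM]: the explicit matrices are unitary
-/

set_option autoImplicit false

namespace Cfsg.Agent.Lib.Helper52.U64

open Matrix Cfsg.Agent.Lib.Helper60.U64 Cfsg.Agent.Lib.Helper40.UnitaryWall Cfsg.Agent.Lib.Helper45

universe u

variable {F : Type u} [Field F]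

theorem nU0_gram (i : F) (hi : i * i = -1) : (nU0 (-i))ᵀ * nU0 i = (4 : F) • (1 : M4 F) := by
  ext a b
  fin_cases a <;> fin_cases b <;>
    simp [nU0, Matrix.mul_apply, Fin.sum_univ_four] <;> grind

theorem nU2_gram (i : F) (hi : i * i = -1) : (nU2 (-i))ᵀ * nU2 i = (4 : F) • (1 : M4 F) := by
  ext a b
  fin_cases a <;> fin_cases b <;>
    simp [nU2, Matrix.mul_apply, Fin.sum_univ_four] <;> grind

theorem nY5_gram (i : F) (hi : i * i = -1) : (nY5 (-i))ᵀ * nY5 i = (4 : F) • (1 : M4 F) := by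
  ext a b
  fin_cases a <;> fin_cases b <;>
    simp [nY5, Matrix.mul_apply, Fin.sum_univ_four] <;> grind

theorem half_gram (h2 : (2 : F) ≠ 0) (A B : M4 F) (h : A * B = (4 : F) • (1 : M4 F)) :
    ((2 : F)⁻¹ • A) * ((2 : F)⁻¹ • B) = 1 := by
  rw [Matrix.smul_mul, Matrix.mul_smul, h, smul_smul, smul_smul]
  have : (2 : F)⁻¹ * (2 : F)⁻¹ * 4 = 1 := by field_simp; norm_num
  rw [this, one_smul]

section cs

variable (σ : F →+* F)

theorem cstar_mU0 (i : F) (hσ : σ i = -i) : cstar σ (mU0 i) = (2 : F)⁻¹ • (nU0 (-i))ᵀ := by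
  have h2σ : σ 2 = 2 := map_ofNat σ 2
  ext a b
  fin_cases a <;> fin_cases b <;>
    simp [cstar_apply, mU0, nU0, hσ, map_inv₀, h2σ]

theorem cstar_mU2 (i : F) (hσ : σ i = -i) : cstar σ (mU2 i) = (2 : F)⁻¹ • (nU2 (-i))ᵀ := by
  have h2σ : σ 2 = 2 := map_ofNat σ 2
  ext a b
  fin_cases a <;> fin_cases b <;>
    simp [cstar_apply, mU2, nU2, hσ, map_inv₀, h2σ]

theorem cstar_mY5 (i : F) (hσ : σ i = -i) : cstar σ (mY5 i) = (2 : F)⁻¹ • (nY5 (-i))ᵀ := by
  have h2σ : σ 2 = 2 := map_ofNat σ 2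
  ext a b
  fin_cases a <;> fin_cases b <;>
    simp [cstar_apply, mY5, nY5, hσ, map_inv₀, h2σ]

theorem gram_mU0 (i : F) (hi : i * i = -1) (h2 : (2 : F) ≠ 0) (hσ : σ i = -i) :
    cstar σ (mU0 i) * mU0 i = 1 := by
  rw [cstar_mU0 σ i hσ, mU0_eq]
  exact half_gram h2 _ _ (nU0_gram i hi)

theorem gram_mU2 (i : F) (hi : i * i = -1) (h2 : (2 : F) ≠ 0) (hσ : σ i = -i) :
    cstar σ (mU2 i) * mU2 i = 1 := by
  rw [cstar_mU2 σ i hσ, mU2_eq]
  exact half_gram h2 _ _ (nU2_gram i hi)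

theorem gram_mY5 (i : F) (hi : i * i = -1) (h2 : (2 : F) ≠ 0) (hσ : σ i = -i) :
    cstar σ (mY5 i) * mY5 i = 1 := by
  rw [cstar_mY5 σ i hσ, mY5_eq]
  exact half_gram h2 _ _ (nY5_gram i hi)

theorem gram_mD : cstar σ (mD F) * mD F = 1 := by
  ext a b
  fin_cases a <;> fin_cases b <;>
    simp [cstar_apply, mD, Matrix.mul_apply, Fin.sum_univ_four]

theorem gram_mA1 : cstar σ (mA1 F) * mA1 F = 1 := by
  ext a b
  fin_cases a <;> fin_cases b <;>
    simp [cstar_apply, mA1, Matrix.mul_apply, Fin.sum_univ_four]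

theorem gram_mA2 : cstar σ (mA2 F) * mA2 F = 1 := by
  ext a b
  fin_cases a <;> fin_cases b <;>
    simp [cstar_apply, mA2, Matrix.mul_apply, Fin.sum_univ_four]

theorem gram_mB1 : cstar σ (mB1 F) * mB1 F = 1 := by
  ext a b
  fin_cases a <;> fin_cases b <;>
    simp [cstar_apply, mB1, Matrix.mul_apply, Fin.sum_univ_four]

theorem gram_mB2 : cstar σ (mB2 F) * mB2 F = 1 := by
  ext a b
  fin_cases a <;> fin_cases b <;>
    simp [cstar_apply, mB2, Matrix.mul_apply, Fin.sum_univ_four]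

end cs

/-- Package [GUM]. -/
theorem pkgGUM : Cfsg.Agent.Lib.Helper60.U64.PkgGUM.{u} := by
  intro F _ _ p i hK hp hp4 hi hip y hy
  have h2 : (2 : F) ≠ 0 := two_ne_zero_of_card hK hp (by omega)
  have hσ : sigmaQ hK i = -i := by rw [sigmaQ_apply]; exact hip
  rw [mem_GU_iff_cstar hK]
  rcases hy with h | h | h | h | h | h | h | h <;> rw [h]
  · exact gram_mD _
  · exact gram_mU0 _ i hi h2 hσ
  · exact gram_mU2 _ i hi h2 hσ
  · exact gram_mY5 _ i hi h2 hσ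
  · exact gram_mA1 _
  · exact gram_mA2 _
  · exact gram_mB1 _
  · exact gram_mB2 _

end Cfsg.Agent.Lib.Helper52.U64
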