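import Mathlib
import Cfsg.Agent.Lib.Helper60.U64.Defs
import Cfsg.Agent.Lib.Helper40.UnitaryWall
import Cfsg.Agent.Lib.Helper45.HermCount
import Cfsg.Agent.Lib.Helper52.U64.Basic

/-!
# U64 (S6001), package [UTV]: a unitary transvection exists
-/

set_option autoImplicit false

namespace Cfsg.Agent.Lib.Helper52.U64

open Matrix Cfsg.Agent.Lib.Helper60.U64 Cfsg.Agent.Lib.Helper40.UnitaryWall Cfsg.Agent.Lib.Helper45

universe u

variable {F : Type u} [Field F]

/-- The rank one nilpotent `a • v vᴴ`, `v = (1, s, 0, 0)`, `t = s ^ p`. -/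
def tvN (a s t : F) : M4 F := a • !![1, t, 0, 0; s, -1, 0, 0; 0, 0, 0, 0; 0, 0, 0, 0]

theorem tvN_sq (a s t : F) (hst : s * t = -1) : tvN a s t * tvN a s t = 0 := by
  ext x y
  fin_cases x <;> fin_cases y <;> simp [tvN, Matrix.mul_apply, Fin.sum_univ_four] <;> grind

theorem tvN_eq_vecMulVec (a s t : F) (hst : s * t = -1) :
    tvN a s t = Matrix.vecMulVec ![a, a * s, 0, 0] ![1, t, 0, 0] := by
  ext x y
  fin_cases x <;> fin_cases y <;> simp [tvN, Matrix.vecMulVec_apply]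
  grind

theorem one_add_pow_of_sq_zero (N : M4 F) (hN : N * N = 0) (n : ℕ) :
    (1 + N) ^ n = 1 + (n : F) • N := by
  induction n with
  | zero => simp
  | succ k ih =>
    rw [pow_succ, ih, Nat.cast_succ, add_smul, one_smul, add_mul, mul_add, mul_add, one_mul,
      mul_one, one_mul, Matrix.smul_mul, hN, smul_zero, add_zero]
    abel

/-- Package [UTV]. -/
theorem pkgUTV : Cfsg.Agent.Lib.Helper60.U64.PkgUTV.{u} := by
  intro F _ _ p hK hp hp2
  have hchar : CharP F p := charP_of_card hK hp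
  have hodd : Odd p := hp.odd_of_ne_two hp2
  have hm1 : (-1 : F) ^ p = -1 := hodd.neg_one_pow
  have hcard := norm_fiber_card hK (-1 : F) (neg_ne_zero.mpr one_ne_zero) hm1
  have hne : Nonempty {x : F // x ^ (p + 1) = -1} := by
    have hpos : 0 < Nat.card {x : F // x ^ (p + 1) = -1} := by rw [hcard]; omega
    exact (Nat.card_pos_iff.mp hpos).1
  obtain ⟨⟨s, hs⟩⟩ := hne
  obtain ⟨b, hb⟩ : ∃ b : F, b ^ p ≠ b := by
    by_contra hall
    push Not at hall
    exact sigmaQ_ne_id' hK (RingHom.ext fun x => by rw [sigmaQ_apply]; exact hall x)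
  obtain ⟨a, ha⟩ : ∃ a : F, a = b - b ^ p := ⟨_, rfl⟩
  have ha0 : a ≠ 0 := by rw [ha]; exact sub_ne_zero.mpr (Ne.symm hb)
  have hap : a ^ p = -a := by rw [ha, conj_sub hK, conj_conj hK]; ring
  obtain ⟨t, ht⟩ : ∃ t : F, t = s ^ p := ⟨_, rfl⟩
  have hst : s * t = -1 := by rw [ht, ← pow_succ']; exact hs
  have htp : t ^ p = s := by rw [ht]; exact conj_conj hK s
  obtain ⟨N, hN⟩ : ∃ N : M4 F, N = tvN a s t := ⟨_, rfl⟩
  have hNN : N * N = 0 := by rw [hN]; exact tvN_sq a s t hst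
  have h1 : (1 + N) * (1 - N) = 1 := by
    rw [mul_sub, mul_one, add_mul, one_mul, hNN]; abel
  have h2 : (1 - N) * (1 + N) = 1 := by
    rw [mul_add, mul_one, sub_mul, one_mul, hNN]; abel
  obtain ⟨x, hxv⟩ : ∃ x : GL (Fin 4) F, (x : M4 F) = 1 + N := ⟨⟨1 + N, 1 - N, h1, h2⟩, rfl⟩
  have hcs : cstar (sigmaQ hK) N = -N := by
    have hnap : (-a) ^ p = a := by rw [hodd.neg_pow, hap, neg_neg]
    ext i j
    rw [cstar_apply, hN]
    fin_cases i <;> fin_cases j <;>
      simp [tvN, sigmaQ_apply, mul_pow, hap, htp, ← ht, hp.ne_zero, hnap]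
  have hGU : x ∈ Cfsg.GU 4 F p := by
    rw [mem_GU_iff_cstar hK, hxv, cstar_add, cstar_one, hcs, ← sub_eq_add_neg]
    exact h2
  have hxp : x ^ p = 1 := by
    apply Units.ext
    rw [Units.val_pow_eq_pow_val, hxv, one_add_pow_of_sq_zero N hNN p, CharP.cast_eq_zero F p,
      zero_smul, add_zero]
    rfl
  have hdet : x ∈ Cfsg.Geo.specialLinear (Fin 4) F := by
    show x ∈ (Matrix.GeneralLinearGroup.det : GL (Fin 4) F →* Fˣ).ker
    rw [MonoidHom.mem_ker]
    have hd : (Matrix.GeneralLinearGroup.det x) ^ p = 1 := by rw [← map_pow, hxp, map_one]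
    have hd' : ((Matrix.GeneralLinearGroup.det x : Fˣ) : F) ^ p = 1 := by
      rw [← Units.val_pow_eq_pow_val, hd]; rfl
    have : ExpChar F p := ExpChar.prime hp
    apply Units.ext
    apply frobenius_inj F p
    rw [frobenius_def, frobenius_def, hd']
    simp
  refine ⟨x, ⟨hGU, hdet⟩, hxp, ?_⟩
  have hx1 : (x : M4 F) - 1 = N := by rw [hxv]; abel
  rw [hx1]
  apply le_antisymm
  · rw [hN, tvN_eq_vecMulVec a s t hst]; exact Matrix.rank_vecMulVec_le _ _
  · apply rank_pos_of_ne_zero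
    intro h0
    have h00 := congrFun (congrFun h0 0) 0
    rw [hN] at h00
    simp [tvN] at h00
    exact ha0 h00

end Cfsg.Agent.Lib.Helper52.U64
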